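import Mathlib
import Cfsg.Agent.Lib.PLocal.ProductSet
import Cfsg.Agent.Lib.LocalBasic

/-! Thompson's replacement argument for a group acting with abelian image on an abelian group. -/

set_option autoImplicit false
open scoped commutatorElement Pointwise

namespace CfsgLib.PLocal

variable {G : Type*} [Group G] [Finite G] {V A : Subgroup G}

/-- `|B| |C_V(B)|` -/
noncomputable def fixWeight (V B : Subgroup G) : ℕ :=
  Nat.card B * Nat.card ↥(V ⊓ Subgroup.centralizer (B : Set G))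

/-- `U` is a good replacement seed. -/
def GoodSeed (V A U : Subgroup G) : Prop :=
  V ⊓ Subgroup.centralizer ((A ⊓ Subgroup.centralizer ((⁅U, A⁆ : Subgroup G) : Set G) : Subgroup G) : Set G) =
      ⁅U, A⁆ ⊔ (V ⊓ Subgroup.centralizer (A : Set G)) ∧
    fixWeight V (A ⊓ Subgroup.centralizer ((⁅U, A⁆ : Subgroup G) : Set G)) = fixWeight V A

theorem commutator_le_of_le_normalizer (hAV : A ≤ Subgroup.normalizer (V : Set G)) {U : Subgroup G} (hU : U ≤ V) :
    ⁅U, A⁆ ≤ V :=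
  Subgroup.commutator_le.mpr fun v hv a ha => by
    rw [commutatorElement_def, mul_assoc, mul_assoc, ← mul_assoc a]
    exact V.mul_mem (hU hv) ((Subgroup.mem_normalizer_iff.mp (hAV ha) v⁻¹).mp (V.inv_mem (hU hv)))

theorem centralizer_inf_mul {X B : Subgroup G} (hB : B ≤ Subgroup.centralizer (X : Set G)) (hXV : X ≤ V)
    (hBA : B ≤ A) : X ⊔ (V ⊓ Subgroup.centralizer (A : Set G)) ≤ V ⊓ Subgroup.centralizer (B : Set G) :=
  sup_le (le_inf hXV (Subgroup.le_centralizer_iff.mp hB))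
    (inf_le_inf_left V (Subgroup.centralizer_le (SetLike.coe_subset_coe.mpr hBA)))

theorem card_sup_of_comm {X C : Subgroup G} (hc : X ≤ Subgroup.normalizer (C : Set G)) :
    Nat.card ↥(X ⊔ C : Subgroup G) * Nat.card ↥(X ⊓ C : Subgroup G) = Nat.card X * Nat.card C := by
  rw [← ProductSet.card_mul_eq X C, ← Subgroup.coe_mul_of_left_le_normalizer_right X C hc]
  rfl

theorem good_cyclic (hVc : ∀ x ∈ V, ∀ y ∈ V, x * y = y * x) (hAV : A ≤ Subgroup.normalizer (V : Set G))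
    (hab : ⁅A, A⁆ ≤ Subgroup.centralizer (V : Set G)) (hmax : ∀ B : Subgroup G, B ≤ A → fixWeight V B ≤ fixWeight V A)
    {u : G} (hu : u ∈ V) : GoodSeed V A (Subgroup.zpowers u) := by
  classical
  set X := ⁅Subgroup.zpowers u, A⁆ with hX
  set B := A ⊓ Subgroup.centralizer (X : Set G) with hB
  have hXV : X ≤ V := commutator_le_of_le_normalizer hAV (Subgroup.zpowers_le.mpr hu)
  have hn : ∀ a ∈ A, ∀ v ∈ V, a * v * a⁻¹ ∈ V := fun a ha v hv => (Subgroup.mem_normalizer_iff.mp (hAV ha) v).mp hv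
  -- the action of `A` on `V` is abelian
  have hswap : ∀ a ∈ A, ∀ c ∈ A, ∀ v ∈ V, a * (c * v * c⁻¹) * a⁻¹ = c * (a * v * a⁻¹) * c⁻¹ := by
    intro a ha c hc v hv
    have h1 := Subgroup.mem_centralizer_iff.mp (hab (Subgroup.commutator_mem_commutator (A.inv_mem ha) (A.inv_mem hc))) v hv
    rw [commutatorElement_def, inv_inv, inv_inv] at h1
    calc a * (c * v * c⁻¹) * a⁻¹ = c * a * (a⁻¹ * c⁻¹ * a * c * v) * c⁻¹ * a⁻¹ := by group
      _ = c * a * (v * (a⁻¹ * c⁻¹ * a * c)) * c⁻¹ * a⁻¹ := by rw [h1]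
      _ = _ := by group
  have hd : ∀ a ∈ A, ⁅u, a⁆ ∈ X := fun a ha =>
    Subgroup.commutator_mem_commutator (Subgroup.mem_zpowers u) ha
  have hgen : ∀ y : G, (∀ c ∈ A, y * ⁅u, c⁆ = ⁅u, c⁆ * y) → y ∈ Subgroup.centralizer (X : Set G) := by
    intro y hy
    have hle : X ≤ Subgroup.centralizer ({y} : Set G) := by
      refine Subgroup.commutator_le.mpr fun v hv c hc => ?_
      obtain ⟨k, rfl⟩ := hv
      have e : ⁅u ^ k, c⁆ = ⁅u, c⁆ ^ k := by
        have hcm : Commute u (c * u⁻¹ * c⁻¹) := hVc u hu _ (hn c hc _ (V.inv_mem hu))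
        rw [commutatorElement_def, commutatorElement_def,
          show u * c * u⁻¹ * c⁻¹ = u * (c * u⁻¹ * c⁻¹) by group, hcm.mul_zpow, conj_zpow]
        group
      rw [e, Subgroup.mem_centralizer_singleton_iff]
      exact ((show Commute y ⁅u, c⁆ from hy c hc).zpow_right k).eq.symm
    exact Subgroup.mem_centralizer_iff.mpr fun x hx => Subgroup.mem_centralizer_singleton_iff.mp (hle hx)
  set D := X ⊓ (V ⊓ Subgroup.centralizer (A : Set G)) with hD
  have hidx : B.relIndex A ≤ D.relIndex X := by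
    rw [Subgroup.relIndex, Subgroup.index_eq_card, Subgroup.relIndex, Subgroup.index_eq_card]
    refine Nat.card_le_card_of_injective
      (fun q : ↥A ⧸ B.subgroupOf A => (QuotientGroup.mk (⟨⁅u, (q.out : G)⁆, hd _ q.out.2⟩ : X) : ↥X ⧸ D.subgroupOf X)) ?_
    intro q r hqr
    rw [← QuotientGroup.out_eq' q, ← QuotientGroup.out_eq' r, QuotientGroup.eq, Subgroup.mem_subgroupOf]
    obtain ⟨a, ha⟩ : ∃ a : G, a = (q.out : G) := ⟨_, rfl⟩
    obtain ⟨b, hb⟩ : ∃ b : G, b = (r.out : G) := ⟨_, rfl⟩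
    have haA : a ∈ A := ha ▸ q.out.2
    have hbA : b ∈ A := hb ▸ r.out.2
    have hfix : ⁅u, a⁆⁻¹ * ⁅u, b⁆ ∈ Subgroup.centralizer (A : Set G) := by
      have := QuotientGroup.eq.mp hqr
      rw [Subgroup.mem_subgroupOf] at this
      simpa [ha, hb] using this.2.2
    simp only [Subgroup.coe_mul, Subgroup.coe_inv, ← ha, ← hb]
    refine ⟨A.mul_mem (A.inv_mem haA) hbA, hgen _ fun c hc => ?_⟩
    obtain ⟨w, hw⟩ : ∃ w, w = (a * u * a⁻¹) * (b * u⁻¹ * b⁻¹) := ⟨_, rfl⟩
    have hcw : c * w * c⁻¹ = w := by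
      have e : ⁅u, a⁆⁻¹ * ⁅u, b⁆ = w := by rw [hw, commutatorElement_def, commutatorElement_def]; group
      rw [← e]
      have := Subgroup.mem_centralizer_iff.mp hfix c hc
      rw [this]; group
    have key : a * ⁅u, c⁆ * a⁻¹ = b * ⁅u, c⁆ * b⁻¹ := by
      set au := a * u * a⁻¹ with hau
      set bu := b * u * b⁻¹ with hbu
      have hauV : au ∈ V := hn a haA u hu
      have hbuV : bu ∈ V := hn b hbA u hu
      have e1 : a * ⁅u, c⁆ * a⁻¹ = au * (c * au⁻¹ * c⁻¹) := by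
        have h := hswap a haA c hc u⁻¹ (V.inv_mem hu)
        rw [commutatorElement_def]
        calc a * (u * c * u⁻¹ * c⁻¹) * a⁻¹ = (a * u * a⁻¹) * (a * (c * u⁻¹ * c⁻¹) * a⁻¹) := by group
          _ = _ := by rw [h, hau]; group
      have e2 : b * ⁅u, c⁆ * b⁻¹ = bu * (c * bu⁻¹ * c⁻¹) := by
        have h := hswap b hbA c hc u⁻¹ (V.inv_mem hu)
        rw [commutatorElement_def]
        calc b * (u * c * u⁻¹ * c⁻¹) * b⁻¹ = (b * u * b⁻¹) * (b * (c * u⁻¹ * c⁻¹) * b⁻¹) := by group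
          _ = _ := by rw [h, hbu]; group
      have hw' : au = w * bu := by rw [hw, hau, hbu]; group
      have hwV : w ∈ V := by
        have : w = au * bu⁻¹ := by rw [hw']; group
        rw [this]; exact V.mul_mem hauV (V.inv_mem hbuV)
      rw [e1, e2]
      have hY : c * bu⁻¹ * c⁻¹ ∈ V := hn c hc _ (V.inv_mem hbuV)
      calc au * (c * au⁻¹ * c⁻¹) = (w * bu) * ((c * bu⁻¹ * c⁻¹) * (c * w * c⁻¹)⁻¹) := by rw [hw']; group
        _ = (w * (bu * (c * bu⁻¹ * c⁻¹))) * w⁻¹ := by rw [hcw]; group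
        _ = ((bu * (c * bu⁻¹ * c⁻¹)) * w) * w⁻¹ := by rw [hVc w hwV _ (V.mul_mem hbuV hY)]
        _ = _ := by group
    have : b⁻¹ * a * ⁅u, c⁆ * (b⁻¹ * a)⁻¹ = ⁅u, c⁆ := by
      calc b⁻¹ * a * ⁅u, c⁆ * (b⁻¹ * a)⁻¹ = b⁻¹ * (a * ⁅u, c⁆ * a⁻¹) * b := by group
        _ = _ := by rw [key]; group
    rw [mul_inv_eq_iff_eq_mul] at this
    have hcm : Commute (b⁻¹ * a) ⁅u, c⁆ := this
    have := hcm.inv_left
    rw [mul_inv_rev, inv_inv] at this
    exact this.eq
  have hle := centralizer_inf_mul (V := V) (A := A) (X := X) (B := B) inf_le_right hXV inf_le_left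
  have hsum := card_sup_of_comm (X := X) (C := V ⊓ Subgroup.centralizer (A : Set G))
    (le_trans (fun x hx => Subgroup.mem_centralizer_iff.mpr fun y hy => hVc y hy.1 x (hXV hx))
      (Subgroup.centralizer_le_normalizer _))
  rw [← hD] at hsum
  have hA' : Nat.card B * B.relIndex A = Nat.card A := by
    have := Subgroup.relIndex_mul_relIndex ⊥ B A bot_le inf_le_left
    rwa [Subgroup.relIndex_bot_left, Subgroup.relIndex_bot_left] at this
  have hX' : Nat.card D * D.relIndex X = Nat.card X := by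
    have := Subgroup.relIndex_mul_relIndex ⊥ D X bot_le inf_le_left
    rwa [Subgroup.relIndex_bot_left, Subgroup.relIndex_bot_left] at this
  have hge : fixWeight V A ≤ Nat.card B * Nat.card ↥(X ⊔ V ⊓ Subgroup.centralizer (A : Set G) : Subgroup G) := by
    have hDpos : 0 < Nat.card D := Nat.card_pos
    refine Nat.le_of_mul_le_mul_right ?_ hDpos
    rw [fixWeight, mul_assoc _ _ (Nat.card D), mul_assoc _ _ (Nat.card D), hsum, ← hA', ← hX']
    calc Nat.card B * B.relIndex A * (Nat.card ↥(V ⊓ Subgroup.centralizer (A : Set G)) * Nat.card D)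
        ≤ Nat.card B * D.relIndex X * (Nat.card ↥(V ⊓ Subgroup.centralizer (A : Set G)) * Nat.card D) := by gcongr
      _ = _ := by ring
  have hmid : Nat.card B * Nat.card ↥(X ⊔ V ⊓ Subgroup.centralizer (A : Set G) : Subgroup G) ≤ fixWeight V B :=
    Nat.mul_le_mul le_rfl (Subgroup.card_le_of_le hle)
  have hB' := hmax B inf_le_left
  refine ⟨(Subgroup.eq_of_le_of_card_ge hle ?_).symm, le_antisymm hB' (hge.trans hmid)⟩
  refine Nat.le_of_mul_le_mul_left ?_ (Nat.card_pos (α := B))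
  exact le_trans hB' hge

theorem good_sup (hVc : ∀ x ∈ V, ∀ y ∈ V, x * y = y * x) (hAV : A ≤ Subgroup.normalizer (V : Set G))
    (hab : ⁅A, A⁆ ≤ Subgroup.centralizer (V : Set G)) (hmax : ∀ B : Subgroup G, B ≤ A → fixWeight V B ≤ fixWeight V A)
    {U₁ U₂ : Subgroup G} (hU1 : U₁ ≤ V) (hU2 : U₂ ≤ V) (h1 : GoodSeed V A U₁) (h2 : GoodSeed V A U₂) :
    GoodSeed V A (U₁ ⊔ U₂) := by
  set X₁ := ⁅U₁, A⁆ with hX1
  set X₂ := ⁅U₂, A⁆ with hX2
  set B₁ := A ⊓ Subgroup.centralizer (X₁ : Set G) with hB1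
  set B₂ := A ⊓ Subgroup.centralizer (X₂ : Set G) with hB2
  set Z := V ⊓ Subgroup.centralizer (A : Set G) with hZ
  have hXV1 := commutator_le_of_le_normalizer hAV hU1
  have hXV2 := commutator_le_of_le_normalizer hAV hU2
  have hnorm : ∀ T S : Subgroup G, T ≤ V → S ≤ V → T ≤ Subgroup.normalizer (S : Set G) := fun T S hT hS =>
    le_trans (fun x hx => Subgroup.mem_centralizer_iff.mpr fun y hy => hVc y (hS hy) x (hT hx))
      (Subgroup.centralizer_le_normalizer _)
  have hXsup : ⁅U₁ ⊔ U₂, A⁆ = X₁ ⊔ X₂ := by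
    refine le_antisymm ?_ (sup_le (Subgroup.commutator_mono le_sup_left le_rfl) (Subgroup.commutator_mono le_sup_right le_rfl))
    exact LocalBasic.commutator_sup_le (hnorm _ _ hU1 (sup_le hXV1 hXV2)) (hnorm _ _ hU2 (sup_le hXV1 hXV2))
      le_sup_left le_sup_right
  set B := A ⊓ Subgroup.centralizer ((X₁ ⊔ X₂ : Subgroup G) : Set G) with hB
  have hBB : B = B₁ ⊓ B₂ := by
    apply le_antisymm
    · exact le_inf (inf_le_inf_left A (Subgroup.centralizer_le (SetLike.coe_subset_coe.mpr le_sup_left)))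
        (inf_le_inf_left A (Subgroup.centralizer_le (SetLike.coe_subset_coe.mpr le_sup_right)))
    · refine le_inf (inf_le_left.trans inf_le_left) ?_
      rw [Subgroup.le_centralizer_iff]
      exact sup_le (Subgroup.le_centralizer_iff.mp (inf_le_left.trans inf_le_right))
        (Subgroup.le_centralizer_iff.mp (inf_le_right.trans inf_le_right))
  have hA2 : ∀ X : Subgroup G, X ≤ V → A ≤ Subgroup.normalizer ((A ⊓ Subgroup.centralizer (X : Set G) : Subgroup G) : Set G) := by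
    intro X hX
    have key : ∀ a ∈ A, ∀ b ∈ A ⊓ Subgroup.centralizer (X : Set G), a * b * a⁻¹ ∈ A ⊓ Subgroup.centralizer (X : Set G) := by
      intro a ha b hb
      refine ⟨A.mul_mem (A.mul_mem ha hb.1) (A.inv_mem ha), ?_⟩
      have hc : ⁅a, b⁆ ∈ Subgroup.centralizer (X : Set G) :=
        Subgroup.centralizer_le (SetLike.coe_subset_coe.mpr hX) (hab (Subgroup.commutator_mem_commutator ha hb.1))
      have := Subgroup.mul_mem _ hc hb.2
      rwa [commutatorElement_def, inv_mul_cancel_right] at this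
    intro a ha
    rw [Subgroup.mem_normalizer_iff]
    intro b
    refine ⟨key a ha b, fun h => ?_⟩
    have := key a⁻¹ (A.inv_mem ha) _ h
    rwa [inv_inv, show a⁻¹ * (a * b * a⁻¹) * a = b by group] at this
  set C1 := V ⊓ Subgroup.centralizer (B₁ : Set G) with hC1
  set C2 := V ⊓ Subgroup.centralizer (B₂ : Set G) with hC2
  have e1 : Nat.card ↥(B₁ ⊔ B₂ : Subgroup G) * Nat.card B = Nat.card B₁ * Nat.card B₂ := by
    rw [hBB]; exact card_sup_of_comm (inf_le_left.trans (hA2 X₂ hXV2))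
  have e2 : Nat.card ↥(C1 ⊔ C2 : Subgroup G) * Nat.card ↥(V ⊓ Subgroup.centralizer ((B₁ ⊔ B₂ : Subgroup G) : Set G)) =
      Nat.card C1 * Nat.card C2 := by
    rw [← card_sup_of_comm (hnorm C1 C2 inf_le_left inf_le_left)]
    congr 1
    have : V ⊓ Subgroup.centralizer ((B₁ ⊔ B₂ : Subgroup G) : Set G) = C1 ⊓ C2 := by
      apply le_antisymm
      · exact le_inf (inf_le_inf_left V (Subgroup.centralizer_le (SetLike.coe_subset_coe.mpr le_sup_left)))
          (inf_le_inf_left V (Subgroup.centralizer_le (SetLike.coe_subset_coe.mpr le_sup_right)))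
      · refine le_inf (inf_le_left.trans inf_le_left) ?_
        rw [Subgroup.le_centralizer_iff]
        exact sup_le (Subgroup.le_centralizer_iff.mp (inf_le_left.trans inf_le_right))
          (Subgroup.le_centralizer_iff.mp (inf_le_right.trans inf_le_right))
    rw [this]
  have hC : C1 ⊔ C2 = X₁ ⊔ X₂ ⊔ Z := by
    rw [hC1, h1.1, hC2, h2.1, ← hX1, ← hX2, sup_sup_sup_comm, sup_idem]
  have hle : X₁ ⊔ X₂ ⊔ Z ≤ V ⊓ Subgroup.centralizer (B : Set G) :=
    centralizer_inf_mul inf_le_right (sup_le hXV1 hXV2) inf_le_left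
  have hge : fixWeight V A ≤ Nat.card B * Nat.card ↥(X₁ ⊔ X₂ ⊔ Z : Subgroup G) := by
    rw [← hC]
    have hm := hmax (B₁ ⊔ B₂) (sup_le inf_le_left inf_le_left)
    have hpos : 0 < fixWeight V (B₁ ⊔ B₂) := Nat.mul_pos Nat.card_pos Nat.card_pos
    refine Nat.le_of_mul_le_mul_right ?_ hpos
    calc fixWeight V A * fixWeight V (B₁ ⊔ B₂) ≤ fixWeight V A * fixWeight V A := Nat.mul_le_mul_left _ hm
      _ = fixWeight V B₁ * fixWeight V B₂ := by rw [h1.2, h2.2]
      _ = (Nat.card B₁ * Nat.card B₂) * (Nat.card C1 * Nat.card C2) := by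
          simp only [fixWeight, ← hC1, ← hC2]; ring
      _ = _ := by rw [← e1, ← e2, fixWeight]; ring
  have hmid : Nat.card B * Nat.card ↥(X₁ ⊔ X₂ ⊔ Z : Subgroup G) ≤ fixWeight V B :=
    Nat.mul_le_mul le_rfl (Subgroup.card_le_of_le hle)
  have hB' := hmax B inf_le_left
  rw [GoodSeed, hXsup]
  refine ⟨(Subgroup.eq_of_le_of_card_ge hle ?_).symm, le_antisymm hB' (hge.trans hmid)⟩
  exact Nat.le_of_mul_le_mul_left (le_trans hB' hge) (Nat.card_pos (α := B))

/-- **Replacement.** If no subgroup of `A` has larger weight, every `U ≤ V` is a good seed. -/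
theorem replacement (hVc : ∀ x ∈ V, ∀ y ∈ V, x * y = y * x) (hAV : A ≤ Subgroup.normalizer (V : Set G))
    (hab : ⁅A, A⁆ ≤ Subgroup.centralizer (V : Set G)) (hmax : ∀ B : Subgroup G, B ≤ A → fixWeight V B ≤ fixWeight V A)
    {U : Subgroup G} (hU : U ≤ V) : GoodSeed V A U := by
  induction hn : Nat.card U using Nat.strong_induction_on generalizing U with
  | _ n ih =>
  by_cases hbot : U = ⊥
  · subst hbot
    simpa using good_cyclic hVc hAV hab hmax V.one_mem
  obtain ⟨W, hW, hWmax⟩ : ∃ W : Subgroup G, W < U ∧ ∀ W', W < W' → W' ≤ U → W' = U := by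
    obtain ⟨W, hW, hWm⟩ := Set.Finite.exists_maximal (Set.toFinite {W : Subgroup G | W < U}) ⟨⊥, bot_lt_iff_ne_bot.mpr hbot⟩
    refine ⟨W, hW, fun W' h h' => ?_⟩
    by_contra hne
    exact h.not_ge (hWm (lt_of_le_of_ne h' hne) h.le)
  obtain ⟨u, hu, huW⟩ := SetLike.exists_of_lt hW
  have e : W ⊔ Subgroup.zpowers u = U := hWmax _
    (lt_of_le_of_ne le_sup_left fun h => huW (h ▸ Subgroup.mem_sup_right (Subgroup.mem_zpowers u)))
    (sup_le hW.le (Subgroup.zpowers_le.mpr hu))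
  rw [← e]
  have hlt : Nat.card W < n := hn ▸ lt_of_le_of_ne (Subgroup.card_le_of_le hW.le)
    (fun h => hW.ne (Subgroup.eq_of_le_of_card_ge hW.le h.ge))
  exact good_sup hVc hAV hab hmax (hW.le.trans hU) (Subgroup.zpowers_le.mpr (hU hu))
    (ih _ hlt (hW.le.trans hU) rfl) (good_cyclic hVc hAV hab hmax (hU hu))

end CfsgLib.PLocal
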