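import Mathlib
import Cfsg.Agent.Lib.PLocal.Replacement

/-! A `p`-group acting on a `p`-group has no nontrivial perfect commutator. -/

set_option autoImplicit false
open scoped commutatorElement Pointwise

namespace CfsgLib.PLocal

variable {G : Type*} [Group G] [Finite G]

theorem eq_bot_of_le_commutator {p : ℕ} [Fact p.Prime] {V A W : Subgroup G} (hV : IsPGroup p V)
    (hAV : A ≤ Subgroup.normalizer (V : Set G)) (hA : ∀ a ∈ A, ∃ k : ℕ, a ^ p ^ k ∈ Subgroup.centralizer (V : Set G))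
    (hWV : W ≤ V) (hW : W ≤ ⁅W, A⁆) : W = ⊥ := by
  classical
  let φ : A →* MulAut V :=
    { toFun := fun a =>
        { toFun := fun v => ⟨a * v * (a : G)⁻¹, (Subgroup.mem_normalizer_iff.mp (hAV a.2) v).mp v.2⟩
          invFun := fun v => ⟨(a : G)⁻¹ * v * a, (Subgroup.mem_normalizer_iff''.mp (hAV a.2) v).mp v.2⟩
          left_inv := fun v => Subtype.ext (show (a : G)⁻¹ * (a * v * (a : G)⁻¹) * a = v by group)
          right_inv := fun v => Subtype.ext (show (a : G) * ((a : G)⁻¹ * v * a) * (a : G)⁻¹ = v by group)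
          map_mul' := fun v w => Subtype.ext (show (a : G) * (v * w) * (a : G)⁻¹ = a * v * (a : G)⁻¹ * (a * w * (a : G)⁻¹) by group) }
      map_one' := by ext v; simp
      map_mul' := fun a b => by ext v; simp [mul_assoc] }
  have hφ : IsPGroup p φ.range := by
    rintro ⟨_, a, rfl⟩
    obtain ⟨k, hk⟩ := hA a a.2
    refine ⟨k, Subtype.ext ?_⟩
    change φ a ^ p ^ k = 1
    rw [← map_pow]
    ext v
    show ((a ^ p ^ k : A) : G) * v * ((a ^ p ^ k : A) : G)⁻¹ = v
    rw [Subgroup.coe_pow, ← Subgroup.mem_centralizer_iff.mp hk v v.2]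
    group
  obtain ⟨i, hi⟩ := IsPGroup.iff_card.mp hV
  obtain ⟨j, hj⟩ := IsPGroup.iff_card.mp hφ
  let S := SemidirectProduct V φ.range φ.range.subtype
  have hfin : Finite S := Finite.of_equiv _ SemidirectProduct.equivProd.symm
  have hcard : Nat.card S = p ^ (i + j) := by
    rw [SemidirectProduct.card, hi, hj, pow_add]
  have hnil : Group.IsNilpotent S := (IsPGroup.of_card hcard).isNilpotent
  obtain ⟨n, hn⟩ := Subgroup.nilpotent_iff_lowerCentralSeries.mp hnil
  let inl : V →* S := SemidirectProduct.inl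
  have key : ∀ m, ∀ v : V, (v : G) ∈ W → inl v ∈ (⊤ : Subgroup S).lowerCentralSeries m := by
    intro m
    induction m with
    | zero => exact fun v _ => by simp
    | succ m ih =>
      have hle : ⁅W, A⁆ ≤ ((((⊤ : Subgroup S).lowerCentralSeries (m + 1)).comap inl).map V.subtype) := by
        refine Subgroup.commutator_le.mpr fun w hw a ha => ?_
        have hav : a * w⁻¹ * a⁻¹ ∈ V := (Subgroup.mem_normalizer_iff.mp (hAV ha) _).mp (V.inv_mem (hWV hw))
        refine ⟨⟨w, hWV hw⟩ * ⟨a * w⁻¹ * a⁻¹, hav⟩, ?_, ?_⟩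
        · show inl _ ∈ (⊤ : Subgroup S).lowerCentralSeries (m + 1)
          rw [Subgroup.lowerCentralSeries_succ]
          have h1 := Subgroup.commutator_mem_commutator (ih ⟨w, hWV hw⟩ hw)
            (Subgroup.mem_top (SemidirectProduct.inr ⟨φ ⟨a, ha⟩, _, rfl⟩ : S))
          convert h1 using 1
          generalize hr : (⟨φ ⟨a, ha⟩, _, rfl⟩ : φ.range) = r
          generalize hv : (⟨w, hWV hw⟩ : V) = v
          have e : SemidirectProduct.inr r * (inl v)⁻¹ * (SemidirectProduct.inr r)⁻¹ = inl (φ.range.subtype r v⁻¹) := by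
            rw [SemidirectProduct.inl_aut, map_inv, map_inv]
          calc inl (v * ⟨a * w⁻¹ * a⁻¹, hav⟩) = inl v * inl (φ.range.subtype r v⁻¹) := by
                rw [map_mul]; subst hr; subst hv; rfl
            _ = ⁅inl v, SemidirectProduct.inr r⁆ := by rw [← e, commutatorElement_def]; simp only [mul_assoc]
        · show (w : G) * (a * w⁻¹ * a⁻¹) = ⁅w, a⁆
          rw [commutatorElement_def]; group
      intro v hv
      obtain ⟨v', hv', e⟩ := hle (hW hv)
      rwa [← (Subtype.ext e : v' = v)]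
  rw [eq_bot_iff]
  intro w hw
  have h1 := key n ⟨w, hWV hw⟩ hw
  rw [hn, Subgroup.mem_bot, ← map_one inl] at h1
  exact Subgroup.mem_bot.mpr (congrArg Subtype.val (SemidirectProduct.inl_injective h1))

/-- A nontrivial action is not killed by the replacement. -/
theorem replacement_nontrivial {p : ℕ} [Fact p.Prime] {V A U : Subgroup G} (hV : IsPGroup p V)
    (hVc : ∀ x ∈ V, ∀ y ∈ V, x * y = y * x)
    (hAV : A ≤ Subgroup.normalizer (V : Set G)) (hA : ∀ a ∈ A, ∃ k : ℕ, a ^ p ^ k ∈ Subgroup.centralizer (V : Set G))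
    (hU : U ≤ V) (hg : GoodSeed V A U) (hne : ⁅V, A⁆ ≠ ⊥) :
    ⁅V, A ⊓ Subgroup.centralizer ((⁅U, A⁆ : Subgroup G) : Set G)⁆ ≠ ⊥ := by
  intro h
  apply hne
  have hWV := commutator_le_of_le_normalizer hAV (le_refl V)
  refine eq_bot_of_le_commutator hV hAV hA hWV ?_
  have hfull : V ≤ ⁅V, A⁆ ⊔ (V ⊓ Subgroup.centralizer (A : Set G)) := by
    refine le_trans ?_ (sup_le_sup_right (Subgroup.commutator_mono hU le_rfl) _)
    rw [← hg.1]
    exact le_inf le_rfl (Subgroup.commutator_eq_bot_iff_le_centralizer.mp h)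
  have hn : ∀ X : Subgroup G, X ≤ V → ∀ Y : Subgroup G, Y ≤ V → X ≤ Subgroup.normalizer (Y : Set G) := fun X hX Y hY =>
    le_trans (fun x hx => Subgroup.mem_centralizer_iff.mpr fun y hy => hVc y (hY hy) x (hX hx))
      (Subgroup.centralizer_le_normalizer _)
  have hWA := commutator_le_of_le_normalizer (V := V) hAV hWV
  calc ⁅V, A⁆ ≤ ⁅⁅V, A⁆ ⊔ (V ⊓ Subgroup.centralizer (A : Set G)), A⁆ := Subgroup.commutator_mono hfull le_rfl
    _ ≤ ⁅⁅V, A⁆, A⁆ := LocalBasic.commutator_sup_le (hn _ hWV _ hWA) (hn _ inf_le_left _ hWA) le_rfl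
        (le_trans (Subgroup.commutator_eq_bot_iff_le_centralizer.mpr inf_le_right).le bot_le)

end CfsgLib.PLocal
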